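import Cfsg.Agent.H187.F4.Defs
import Cfsg.Agent.H325.Same.BigChar
import Cfsg.Agent.H290.ElRich
import Cfsg.Agent.H290.ElCross
import Cfsg.Agent.H56.Exc.Big
import Cfsg.Agent.H128.F4.Alt

/-!
# S3691, `F₄(q)`: the `p`-part of a simple section which is not of Lie type in characteristic `p` (helper128, for helper187)

* `P1` : the bound for the `l`-parts (helper376)
* `cross4_of` : the `p`-part is at most `Bd p q`
-/

set_option autoImplicit false

namespace Cfsg.Agent.H128.F4

universe u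

open Cfsg Cfsg.Agent.OrdDiv Cfsg.Agent.H436 Cfsg.Agent.H902 Cfsg.Agent.H902.Names Cfsg.Agent.H290.ElTab
  Cfsg.Agent.H290.ElCross Cfsg.Agent.H325.Same Cfsg.Agent.H56.Exc Cfsg.Agent.H915.GN Cfsg.Agent.H264.GN Cfsg.Agent.H264.FKS
  Cfsg.Agent.H187.F4

/-- the bound for the `l`-parts -/
def P1 : Prop := ∀ {q l k : ℕ}, l.Prime → ¬ l ∣ q → 2 ≤ q →
  l ^ k ∣ q ^ 24 * ((q ^ 2 - 1) * (q ^ 6 - 1) * (q ^ 8 - 1) * (q ^ 12 - 1)) →
    l ^ k ≤ 128 * (q + 1) ^ 4 ∧ (l ≠ 2 → l ^ k ≤ 9 * (q + 1) ^ 4)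

/-- the order of `F₄(q)` -/
def N4 (q : ℕ) : ℕ := q ^ 24 * ((q ^ 2 - 1) * (q ^ 6 - 1) * (q ^ 8 - 1) * (q ^ 12 - 1))

theorem num_f4 (q : ℕ) : num (.f4 q) = N4 q := rfl

theorem le_Bd {p q x : ℕ} (h : x ≤ 9 * (q + 1) ^ 4 + 1) : x ≤ Bd p q := by
  rw [Bd]
  split_ifs <;> omega

/-- the sporadic groups -/
def tabSp : Bool := spor.all fun x => (pd x.2).all fun p => (List.range 13).all fun f => Nat.ble (p ^ f) 4 ||
  (!(N4 (p ^ f) % x.2 == 0) ||
    (List.range 50).all fun k => Nat.ble (p ^ k) (Bd p (p ^ f)) || !(x.2 % p ^ k == 0))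

def tabSp50 : Bool := spor.all fun x => (pd x.2).all fun p => !(x.2 % p ^ 50 == 0)

set_option maxRecDepth 10000 in
theorem tabSp_true : tabSp = true := by decide +kernel

theorem tabSp50_true : tabSp50 = true := by decide +kernel

theorem spor_le {x : Grp × ℕ} (hx : x ∈ spor) {p f k : ℕ} (hp : p.Prime) (h5 : 5 ≤ p ^ f)
    (hd : x.2 ∣ N4 (p ^ f)) (hk : p ^ k ∣ x.2) : p ^ k ≤ Bd p (p ^ f) := by
  by_contra hcon
  push Not at hcon
  have hs' : smooth x.2 = true := List.all_eq_true.1 smooth_spor x hx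
  have hk0 : k ≠ 0 := by
    rintro rfl
    rw [pow_zero] at hcon
    have : 1 ≤ Bd p (p ^ f) := le_Bd (by omega)
    omega
  have hpx : p ∈ pd x.2 := mem_pd hs' hp ((dvd_pow_self p hk0).trans hk)
  have hk50 : k < 50 := by
    by_contra h50
    have h1 := List.all_eq_true.1 (List.all_eq_true.1 tabSp50_true x hx) p hpx
    have h2 : p ^ 50 ∣ x.2 := (pow_dvd_pow p (by omega)).trans hk
    simp [Nat.mod_eq_zero_of_dvd h2] at h1
  have hf25 : f < 13 := by
    by_contra h25
    have h1 : p ^ k ≤ p ^ (4 * f) := Nat.pow_le_pow_right hp.pos (by omega)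
    have h2 : p ^ (4 * f) = (p ^ f) ^ 4 := by rw [← pow_mul, mul_comm]
    have h3 : (p ^ f) ^ 4 ≤ (p ^ f + 1) ^ 4 := Nat.pow_le_pow_left (by omega) 4
    have h4 : p ^ k ≤ Bd p (p ^ f) := le_Bd (by omega)
    omega
  have h1 := List.all_eq_true.1 (List.all_eq_true.1 (List.all_eq_true.1 tabSp_true x hx) p hpx) f (List.mem_range.2 hf25)
  simp only [Bool.or_eq_true, Nat.ble_eq, Bool.not_eq_true', beq_eq_false_iff_ne, ne_eq,
    Nat.mod_eq_zero_of_dvd hd, not_true_eq_false, false_or] at h1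
  rcases h1 with h1 | h1
  · omega
  · have h2 := List.all_eq_true.1 h1 k (List.mem_range.2 hk50)
    simp only [Bool.or_eq_true, Nat.ble_eq, Bool.not_eq_true', beq_eq_false_iff_ne, ne_eq,
      Nat.mod_eq_zero_of_dvd hk, not_true_eq_false, or_false] at h2
    omega

/-- the alternating groups -/
theorem alt_part {p k : ℕ} (hp : p.Prime) (h : p ^ k ∣ 1216451004088320000) : p ^ k ≤ 165889 := by
  by_contra hcon
  push Not at hcon
  have hk0 : k ≠ 0 := by
    rintro rfl
    norm_num at hcon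
  have hp16 : p ∣ 2 * 3 * 5 * 7 * 11 * 13 * 17 * 19 := by
    have h1 : p ∣ (2 * 3 * 5 * 7 * 11 * 13 * 17 * 19) ^ 17 := (dvd_pow_self p hk0).trans (h.trans (by norm_num))
    exact hp.dvd_of_dvd_pow h1
  have hmem : p = 2 ∨ p = 3 ∨ p = 5 ∨ p = 7 ∨ p = 11 ∨ p = 13 ∨ p = 17 ∨ p = 19 := by
    have key : ∀ {a b : ℕ}, b.Prime → p ∣ a * b → p ∣ a ∨ p = b := fun {a b} hb h1 => by
      rcases hp.dvd_mul.1 h1 with h2 | h2
      · exact Or.inl h2
      · exact Or.inr ((Nat.prime_dvd_prime_iff_eq hp hb).1 h2)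
    rcases key (by norm_num) hp16 with h1 | h1
    · rcases key (by norm_num) h1 with h1 | h1
      · rcases key (by norm_num) h1 with h1 | h1
        · rcases key (by norm_num) h1 with h1 | h1
          · rcases key (by norm_num) h1 with h1 | h1
            · rcases key (by norm_num) h1 with h1 | h1
              · rcases key (by norm_num) h1 with h1 | h1
                · exact Or.inl ((Nat.prime_dvd_prime_iff_eq hp Nat.prime_two).1 h1)
                · exact Or.inr (Or.inl h1)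
              · exact Or.inr (Or.inr (Or.inl h1))
            · exact Or.inr (Or.inr (Or.inr (Or.inl h1)))
          · exact Or.inr (Or.inr (Or.inr (Or.inr (Or.inl h1))))
        · exact Or.inr (Or.inr (Or.inr (Or.inr (Or.inr (Or.inl h1)))))
      · exact Or.inr (Or.inr (Or.inr (Or.inr (Or.inr (Or.inr (Or.inl h1))))))
    · exact Or.inr (Or.inr (Or.inr (Or.inr (Or.inr (Or.inr (Or.inr h1))))))
  have key : ∀ K, ¬ p ^ K ∣ 1216451004088320000 → p ^ (K - 1) ≤ 165889 → False := by
    intro K h1 h2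
    have h3 : k ≤ K - 1 := by
      by_contra h4
      exact h1 ((pow_dvd_pow p (by omega)).trans h)
    have := Nat.pow_le_pow_right hp.pos h3
    omega
  rcases hmem with rfl | rfl | rfl | rfl | rfl | rfl | rfl | rfl
  · exact key 18 (by norm_num) (by norm_num)
  · exact key 9 (by norm_num) (by norm_num)
  · exact key 5 (by norm_num) (by norm_num)
  · exact key 3 (by norm_num) (by norm_num)
  · exact key 2 (by norm_num) (by norm_num)
  · exact key 2 (by norm_num) (by norm_num)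
  · exact key 2 (by norm_num) (by norm_num)
  · exact key 2 (by norm_num) (by norm_num)

/-- `ord_r(p) = e` divides `r - 1` -/
theorem prim_dvd {p e r : ℕ} (h : Prim p e r) : e ∣ r - 1 := by
  rw [← h.dvd_iff]
  have := Fact.mk h.prime
  have h0 : (p : ZMod r) ≠ 0 := fun h1 => h.not_dvd ((ZMod.natCast_eq_zero_iff _ _).1 h1)
  have hp1 : 1 ≤ p ^ (r - 1) := by
    rcases Nat.eq_zero_or_pos p with h1 | h1
    · exact absurd (h1 ▸ dvd_zero r) h.not_dvd
    · exact Nat.one_le_pow _ _ h1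
  rw [← (ZMod.natCast_eq_zero_iff _ _), Nat.cast_sub hp1, Nat.cast_pow, Nat.cast_one, ZMod.pow_card_sub_one_eq_one h0,
    sub_self]

variable {p f : ℕ} {g : Grp} {S : Type u} [Group S] [Finite S]

/-- **(P2) cross characteristic** -/
theorem cross4_of (hP1 : P1) (hg : IsNamed g S) (hp : p.Prime) (hf : 1 ≤ f) (h5 : 5 ≤ p ^ f)
    (hdvd : Nat.card S ∣ num (.f4 (p ^ f))) {r m d : ℕ} (hd : d = 8 ∨ d = 12) (hr : Prim p (f * d) r)
    (hb : Big S r m d) (hrS : r ∣ Nat.card S) (hch : ¬ HasChar p g) {k : ℕ} (hk : p ^ k ∣ Nat.card S) :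
    p ^ k ≤ Bd p (p ^ f) := by
  have T : OrderTable.{u} := table
  have h6 : 6 ^ 4 ≤ (p ^ f + 1) ^ 4 := Nat.pow_le_pow_left (by omega) 4
  have hBd9 : 9 * (p ^ f + 1) ^ 4 + 1 ≤ Bd p (p ^ f) := le_Bd le_rfl
  have hBd1 : p ≠ 2 → Bd p (p ^ f) = 128 * (p ^ f + 1) ^ 4 + 1 := fun h => by rw [Bd, if_neg h]
  have hr1 := prim_dvd hr
  have hr5 : 5 ≤ r := by
    have h1 := Nat.le_of_dvd (by have := hr.prime.two_le; omega) hr1
    have h2 : 1 * 8 ≤ f * d := Nat.mul_le_mul hf (by omega)
    omega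
  have hlp : ∀ {l : ℕ}, l.Prime → l ≠ p → ¬ l ∣ p ^ f := fun hl hne h =>
    hne ((Nat.prime_dvd_prime_iff_eq hl hp).1 (hl.dvd_of_dvd_pow h))
  rcases name_cases hg.cond with ⟨l, hl, hch'⟩ | ⟨n, hn, rfl⟩ | ⟨x, hx, rfl⟩
  · have hne : l ≠ p := by
      rintro rfl
      exact hch hch'
    obtain ⟨X, a, -, hR, -⟩ := exists_lie hl hg hch'
    have hM := hR.M_ne
    -- the `l`-part
    have hlM : Art.P l (Nat.card S) + 1 ≤ Bd p (p ^ f) := by
      have h1 : Art.P l (Nat.card S) ∣ Nat.card S := Nat.ordProj_dvd _ _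
      obtain ⟨h2, h3⟩ := hP1 hl (hlp hl hne) (by omega) (h1.trans hdvd)
      by_cases hp2 : p = 2
      · have h4 := h3 (fun h => hne (h.trans hp2.symm))
        have h5 : Art.P l (Nat.card S) ≤ 9 * (p ^ f + 1) ^ 4 := h4
        omega
      · rw [hBd1 hp2]
        have h5 : Art.P l (Nat.card S) ≤ 128 * (p ^ f + 1) ^ 4 := h2
        omega
    by_cases hX : X = .L 2
    · subst hX
      rcases Nat.lt_or_ge k 3 with hk3 | hk3
      · have h1 : p ^ k ≤ (p ^ f) ^ 4 := by
          rw [← pow_mul]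
          exact Nat.pow_le_pow_right hp.pos (by omega)
        have h2 : (p ^ f) ^ 4 ≤ (p ^ f + 1) ^ 4 := Nat.pow_le_pow_left (by omega) 4
        omega
      · have h1 := pow_le_L2 hR hp hne hk3 hk
        rw [hR.P_self] at hlM
        have : Art.NN (.L 2) = 1 := rfl
        rw [this, pow_one] at hlM
        omega
    · by_contra hcon
      push Not at hcon
      have hkM : p ^ k ≤ Nat.card S := Nat.le_of_dvd (Nat.pos_of_ne_zero hM) hk
      have h1 : p ^ k ≤ Art.P p (Nat.card S) := le_P hp hM hk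
      have h2 := hR.dom hX hp (Ne.symm hne) ?_ ?_
      · rw [hR.P_self] at hlM
        omega
      · rintro ⟨rfl, h3, rfl⟩
        have := big_U3 hR h3
        omega
      · rintro ⟨rfl, h3, rfl⟩
        have h4 := hR.eq
        rw [h3] at h4
        have h5' : Art.dd (.U 4) 2 = 1 := by decide
        have h6 : 2 ^ Art.NN (.U 4) * Art.num (.U 4) 2 = 25920 := by decide +kernel
        rw [h5', h6] at h4
        have := hBd1 (by norm_num)
        omega
  · obtain ⟨e⟩ := hg.real
    have h1 := Cfsg.Agent.H290.ElRich.le_of_dvd_alt hb.prime (by omega) e hrS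
    have h2 := alt_prime_dvd hb.prime hr5 h1 e hb.aut
    have h3 := Cfsg.Agent.H290.ElRich.alt_le hb.prime hr5 e hrS fun x hx => by
      have := hb.cyc x hx
      let _ := IsCyclic.commGroup (α := ↥(Subgroup.centralizer ({x} : Set S)))
      infer_instance
    have h2' := Nat.le_of_dvd (by omega) h2
    have hfd := Nat.le_of_dvd (by omega) hr1
    have hf2 : f ≤ 2 := by
      rcases hd with rfl | rfl <;> omega
    have hp2 : p ≠ 2 := by
      rintro rfl
      have : 2 ^ f ≤ 2 ^ 2 := Nat.pow_le_pow_right (by norm_num) hf2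
      omega
    have hn20 : n ≤ 20 := by
      rcases hd with rfl | rfl
      · omega
      · obtain ⟨c, hc⟩ := hr1
        have h7 : f * 12 * c = 12 * (f * c) := by ring
        rw [h7] at hc
        have h8 : f * c = 1 ∨ f * c = 2 := by omega
        rcases h8 with h8 | h8
        · omega
        · have h9 : r = 25 := by omega
          rw [h9] at hr
          exact absurd hr.prime (by norm_num)
    have h4 : 2 * Nat.card S = n.factorial := hg.eq
    have h5 : n.factorial ∣ Nat.factorial 20 := Nat.factorial_dvd_factorial hn20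
    have h6' : 2 * Nat.card S ∣ 2 * 1216451004088320000 := by
      rw [h4]
      exact h5.trans (by decide)
    have h7 : Nat.card S ∣ 1216451004088320000 := Nat.dvd_of_mul_dvd_mul_left (by norm_num) h6'
    have h8 := alt_part hp (hk.trans h7)
    rw [hBd1 hp2]
    omega
  · have hc : Nat.card S = x.2 := T.spor S x hx hg.real
    rw [hc] at hk hdvd
    exact spor_le hx hp h5 hdvd hk

end Cfsg.Agent.H128.F4
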